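import Cfsg.Agent.H20.RIM.AS
import Cfsg.Agent.H586.NX.NotNine
import Cfsg.Agent.H586.NX.Fix
import Cfsg.Agent.S0144

/-!
# S4816, layer (B), `q = p = 3`, `n = 2` (K2, helper196)
-/

set_option autoImplicit false
set_option linter.unusedSectionVars false

open Subgroup

namespace Cfsg.Agent.H196.RIM

open Cfsg.Agent.H586.NX Cfsg.Agent.H20.RIM

variable {r : ℕ} {Y U : Type*} [Group Y] [Finite Y] [AddCommGroup U] [Finite U] [DistribMulAction Y U]
  {X : Subgroup Y} {B : U → U → ZMod 2}

theorem P_two : Cfsg.Agent.H37.NW.P 2 2 = 720 := by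
  simp [Cfsg.Agent.H37.NW.P, Finset.prod_range_succ]

/-- the fixed vectors of an element of order five -/
theorem fix_five (S : SX (U := U) 3 r 2 2 X B) {x : Y} (hx : orderOf x = 5) {u : U} (hu : x • u = u) : u = 0 := by
  have h5 : Fact (Nat.Prime 5) := ⟨Nat.prime_five⟩
  let F : AddSubgroup U :=
    { carrier := {u | x • u = u}
      zero_mem' := smul_zero x
      add_mem' := by
        intro a b ha hb
        show x • (a + b) = a + b
        rw [smul_add, ha, hb]
      neg_mem' := by
        intro a ha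
        show x • (-a) = -a
        rw [smul_neg, ha] }
  have hP : IsPGroup 5 (zpowers x) := IsPGroup.of_card (n := 1) (by rw [Nat.card_zpowers, hx, pow_one])
  have h1 := hP.card_modEq_card_fixedPoints U
  have h2 : Nat.card (MulAction.fixedPoints (zpowers x) U) = Nat.card F := by
    refine Nat.card_congr (Equiv.subtypeEquivRight fun v => ?_)
    constructor
    · intro hv
      exact hv ⟨x, mem_zpowers x⟩
    · rintro hv ⟨y, hy⟩
      have h3 : y ∈ MulAction.stabilizer Y v := (zpowers_le.2 (show x ∈ MulAction.stabilizer Y v from hv)) hy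
      exact h3
  rw [h2, S.card] at h1
  have h3 : Nat.card F ∣ 2 ^ (2 * 2) := S.card ▸ AddSubgroup.card_addSubgroup_dvd_card F
  obtain ⟨c, hc, hcard⟩ := (Nat.dvd_prime_pow Nat.prime_two).1 h3
  rw [hcard] at h1
  have hc' : c = 0 ∨ c = 4 := by
    interval_cases c
    · exact Or.inl rfl
    · exact absurd h1 (by decide)
    · exact absurd h1 (by decide)
    · exact absurd h1 (by decide)
    · exact Or.inr rfl
  rcases hc' with rfl | rfl
  · rw [pow_zero] at hcard
    have h4 : F = ⊥ := AddSubgroup.eq_bot_of_card_eq F hcard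
    have h6 : u ∈ F := hu
    rwa [h4, AddSubgroup.mem_bot] at h6
  · exfalso
    have h4 : F = ⊤ := by
      apply AddSubgroup.eq_top_of_card_eq
      rw [hcard, S.card]
    have h6 : x = 1 := by
      apply S.faith
      intro v
      have h7 : v ∈ F := by rw [h4]; exact AddSubgroup.mem_top v
      exact h7
    rw [h6, orderOf_one] at hx
    omega

/-- a `Y`-invariant set without `0` has order divisible by five -/
theorem five_dvd (S : SX (U := U) 3 r 2 2 X B) {x : Y} (hx : orderOf x = 5) (D : Set U) (h0 : (0 : U) ∉ D)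
    (hD : ∀ y : Y, ∀ u ∈ D, y • u ∈ D) : 5 ∣ D.ncard := by
  have h5 : Fact (Nat.Prime 5) := ⟨Nat.prime_five⟩
  have hP : IsPGroup 5 (zpowers x) := IsPGroup.of_card (n := 1) (by rw [Nat.card_zpowers, hx, pow_one])
  let _ : MulAction (zpowers x) D :=
    { smul := fun y u => ⟨(y : Y) • (u : U), hD y u u.2⟩
      one_smul := fun u => Subtype.ext (one_smul Y (u : U))
      mul_smul := fun a b u => Subtype.ext (mul_smul (a : Y) (b : Y) (u : U)) }
  have h1 := hP.card_modEq_card_fixedPoints D
  have h2 : Nat.card (MulAction.fixedPoints (zpowers x) D) = 0 := by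
    rw [Nat.card_eq_zero]
    left
    refine ⟨fun v => ?_⟩
    have h3 : x • ((v : D) : U) = ((v : D) : U) := congrArg Subtype.val (v.2 ⟨x, mem_zpowers x⟩)
    have h4 := fix_five S hx h3
    exact h0 (h4 ▸ (v : D).2)
  rw [h2] at h1
  exact (Nat.modEq_zero_iff_dvd).1 h1

/-- a `Y`-invariant set with five elements -/
theorem card_dvd_of_five (S : SX (U := U) 3 r 2 2 X B) (D : Set U) (h0 : (0 : U) ∉ D)
    (hD : ∀ y : Y, ∀ u ∈ D, y • u ∈ D) (hc : D.ncard = 5) : Nat.card Y ∣ 120 := by
  classical
  let act : MulAction Y D :=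
    { smul := fun y u => ⟨(y : Y) • (u : U), hD y u u.2⟩
      one_smul := fun u => Subtype.ext (one_smul Y (u : U))
      mul_smul := fun a b u => Subtype.ext (mul_smul (a : Y) (b : Y) (u : U)) }
  have hsm : ∀ (y : Y) (u : D), ((y • u : D) : U) = y • (u : U) := fun y u => rfl
  have hcl : AddSubgroup.closure D = ⊤ := by
    rcases S.irr (AddSubgroup.closure D) (by
      intro y w hw
      have h1 : AddSubgroup.closure D ≤ (AddSubgroup.closure D).comap (DistribMulAction.toAddMonoidHom U y) := by
        rw [AddSubgroup.closure_le]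
        intro u hu
        exact AddSubgroup.subset_closure (hD y u hu)
      exact h1 hw) with h1 | h1
    · exfalso
      have h2 : D ⊆ {0} := by
        intro u hu
        have : u ∈ AddSubgroup.closure D := AddSubgroup.subset_closure hu
        rwa [h1, AddSubgroup.mem_bot] at this
      have h3 : D = ∅ := by
        rw [Set.eq_empty_iff_forall_notMem]
        intro u hu
        have : u = 0 := h2 hu
        exact h0 (this ▸ hu)
      rw [h3, Set.ncard_empty] at hc
      omega
    · exact h1
  have hinj : Function.Injective (MulAction.toPermHom Y D) := by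
    rw [injective_iff_map_eq_one]
    intro y hy
    apply S.faith
    intro u
    have h1 : AddSubgroup.closure D ≤ (AddMonoidHom.eqLocus (DistribMulAction.toAddMonoidHom U y) (AddMonoidHom.id U)) := by
      rw [AddSubgroup.closure_le]
      intro u hu
      have h2 := congrArg (fun f : Equiv.Perm D => ((f ⟨u, hu⟩ : D) : U)) hy
      exact h2
    rw [hcl] at h1
    exact h1 (AddSubgroup.mem_top u)
  have h1 := Subgroup.card_dvd_of_injective (MulAction.toPermHom Y D) hinj
  have h2 : Nat.card (Equiv.Perm D) = 120 := by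
    rw [Nat.card_perm]
    have : Nat.card D = 5 := hc
    rw [this]
    rfl
  rwa [h2] at h1

/-- an invariant quadratic form and an element of order five -/
theorem card_dvd_of_quad (S : SX (U := U) 3 r 2 2 X B) {x : Y} (hx : orderOf x = 5) (q : U → ZMod 2)
    (hq : ∀ u v, q (u + v) = q u + q v + B u v) (hqi : ∀ (y : Y) (u : U), q (y • u) = q u) : Nat.card Y ∣ 120 := by
  classical
  have hcard : Nat.card U = 16 := S.card
  set D0 : Set U := {u | u ≠ 0 ∧ q u = 0} with hD0
  set D1 : Set U := {u | u ≠ 0 ∧ q u = 1} with hD1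
  have hz : ∀ z : ZMod 2, z = 0 ∨ z = 1 := by decide
  have hsm0 : ∀ (y : Y) (u : U), u ≠ 0 → y • u ≠ 0 := by
    intro y u hu e
    apply hu
    have h1 : y⁻¹ • (y • u) = y⁻¹ • (0 : U) := by rw [e]
    rwa [inv_smul_smul, smul_zero] at h1
  have hi0 : ∀ y : Y, ∀ u ∈ D0, y • u ∈ D0 := fun y u hu => ⟨hsm0 y u hu.1, by rw [hqi, hu.2]⟩
  have hi1 : ∀ y : Y, ∀ u ∈ D1, y • u ∈ D1 := fun y u hu => ⟨hsm0 y u hu.1, by rw [hqi, hu.2]⟩
  have hn0 : (0 : U) ∉ D0 := fun h => h.1 rfl
  have hn1 : (0 : U) ∉ D1 := fun h => h.1 rfl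
  have hd0 := five_dvd S hx D0 hn0 hi0
  have hd1 := five_dvd S hx D1 hn1 hi1
  have hsum : D0.ncard + D1.ncard = 15 := by
    have hdis : Disjoint D0 D1 := by
      rw [Set.disjoint_left]
      intro u hu hu'
      have := hu.2.symm.trans hu'.2
      exact absurd this (by decide)
    rw [← Set.ncard_union_eq hdis (Set.toFinite _) (Set.toFinite _)]
    have h1 : D0 ∪ D1 = {(0 : U)}ᶜ := by
      ext u
      simp only [hD0, hD1, Set.mem_union, Set.mem_setOf_eq, Set.mem_compl_iff, Set.mem_singleton_iff]
      constructor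
      · rintro (h | h) <;> exact h.1
      · intro h
        rcases hz (q u) with h2 | h2
        · exact Or.inl ⟨h, h2⟩
        · exact Or.inr ⟨h, h2⟩
    have h2 := Set.ncard_add_ncard_compl ({(0 : U)} : Set U)
    rw [Set.ncard_singleton, hcard] at h2
    rw [h1]
    omega
  have hq0 : q 0 = 0 := by
    have h1 := hq 0 0
    rw [add_zero, S.alt, add_zero] at h1
    have : ∀ z : ZMod 2, z = z + z → z = 0 := by decide
    exact this _ h1
  -- `U` has an element outside of small sets
  have hex : ∀ A : Finset U, A.card < 16 → ∃ u, u ∉ A := by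
    intro A hA
    by_contra hcon
    push Not at hcon
    have := Fintype.ofFinite U
    have h1 : (Finset.univ : Finset U) ⊆ A := fun u _ => hcon u
    have h2 := Finset.card_le_card h1
    rw [Finset.card_univ, ← Nat.card_eq_fintype_card, hcard] at h2
    omega
  obtain ⟨a, ha⟩ := hd0
  obtain ⟨b, hb⟩ := hd1
  have hcases : a = 0 ∨ a = 1 ∨ b = 1 ∨ b = 0 := by omega
  rcases hcases with h | h | h | h
  · -- `q = 1` outside of `0`
    exfalso
    rw [h, mul_zero, Set.ncard_eq_zero (Set.toFinite _)] at ha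
    have hq1 : ∀ u, u ≠ 0 → q u = 1 := by
      intro u hu
      rcases hz (q u) with h2 | h2
      · have h3 : u ∈ D0 := ⟨hu, h2⟩
        rw [ha] at h3
        exact absurd h3 (Set.notMem_empty _)
      · exact h2
    have hneg : ∀ u : U, u + u = 0 := by
      intro u
      have := S.exp u
      rwa [two_nsmul] at this
    have hadd : ∀ u v : U, u + v = 0 → u = v := by
      intro u v e
      have h1 : u = -v := eq_neg_of_add_eq_zero_left e
      have h2 : -v = v := neg_eq_of_add_eq_zero_left (hneg v)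
      rw [h1, h2]
    have hB : ∀ u v : U, u ≠ 0 → v ≠ 0 → u ≠ v → B u v = 1 := by
      intro u v hu hv huv
      have h1 := hq u v
      rw [hq1 u hu, hq1 v hv, hq1 (u + v) fun e => huv (hadd u v e)] at h1
      have : ∀ z : ZMod 2, (1 : ZMod 2) = 1 + 1 + z → z = 1 := by decide
      exact this _ h1
    obtain ⟨u, hu⟩ := hex {0} (by rw [Finset.card_singleton]; norm_num)
    obtain ⟨v, hv⟩ := hex {0, u} (lt_of_le_of_lt Finset.card_le_two (by norm_num))
    obtain ⟨w, hw⟩ := hex {0, u, v, u + v} (lt_of_le_of_lt Finset.card_le_four (by norm_num))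
    simp only [Finset.mem_insert, Finset.mem_singleton, not_or] at hu hv hw
    have e1 : B u (v + w) = 0 := by
      rw [S.addr, hB u v hu hv.1 (Ne.symm hv.2), hB u w hu hw.1 (Ne.symm hw.2.1)]
      decide
    have e2 : B u (v + w) = 1 := by
      apply hB u (v + w) hu
      · intro e
        exact hw.2.2.1 (hadd v w e).symm
      · intro e
        apply hw.2.2.2
        rw [e, add_assoc, add_comm w v, ← add_assoc, hneg v, zero_add]
    rw [e1] at e2
    exact absurd e2 (by decide)
  · exact card_dvd_of_five S D0 hn0 hi0 (by rw [ha, h])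
  · exact card_dvd_of_five S D1 hn1 hi1 (by rw [hb, h])
  · -- `q = 0`
    exfalso
    rw [h, mul_zero, Set.ncard_eq_zero (Set.toFinite _)] at hb
    have hq1 : ∀ u, q u = 0 := by
      intro u
      by_cases hu : u = 0
      · rw [hu, hq0]
      · rcases hz (q u) with h2 | h2
        · exact h2
        · have h3 : u ∈ D1 := ⟨hu, h2⟩
          rw [hb] at h3
          exact absurd h3 (Set.notMem_empty _)
    obtain ⟨u, hu⟩ := hex {0} (by rw [Finset.card_singleton]; norm_num)
    apply hu
    rw [Finset.mem_singleton]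
    apply S.nd
    intro v
    have h1 := hq u v
    rw [hq1, hq1, hq1, add_zero, zero_add] at h1
    exact h1.symm

/-- **K2** -/
theorem kill2 (A : AS (U := U) r 2 3 X B) : Sm X := by
  have hXn := A.nX
  have := A.simp
  have hd : Nat.card Y ∣ 720 := by
    have := card_dvd A.S
    rwa [P_two] at this
  have hmul : Nat.card Y = Nat.card (Y ⧸ X) * Nat.card X := Subgroup.card_eq_card_quotient_mul_card_subgroup X
  have hS : Nat.card (Y ⧸ X) ∣ 720 := (Dvd.intro _ hmul.symm).trans hd
  have hns : ¬ Group.IsSolvable (Y ⧸ X) := by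
    intro hs
    apply A.na
    exact ⟨⟨IsSimpleGroup.comm_iff_isSolvable.2 hs⟩⟩
  -- five divides the order
  have h5 : 5 ∣ Nat.card (Y ⧸ X) := by
    by_contra h5
    have h1 : Nat.card (Y ⧸ X) ∣ 2 ^ 4 * 3 ^ 2 := by
      have hc : (Nat.card (Y ⧸ X)).Coprime 5 := ((Nat.Prime.coprime_iff_not_dvd Nat.prime_five).2 h5).symm
      apply hc.dvd_of_dvd_mul_right (n := 5)
      norm_num
      exact hS
    obtain ⟨a, b, ha, hb, hab⟩ := (Nat.dvd_mul).1 h1
    obtain ⟨i, -, rfl⟩ := (Nat.dvd_prime_pow Nat.prime_two).1 ha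
    obtain ⟨j, -, rfl⟩ := (Nat.dvd_prime_pow Nat.prime_three).1 hb
    exact hns (Cfsg.Agent.S0144.result 2 3 i j Nat.prime_two Nat.prime_three hab.symm)
  -- nine does not
  have h9 : ¬ 9 ∣ Nat.card (Y ⧸ X) := by
    intro h9
    have : Fact (Nat.Prime 5) := ⟨Nat.prime_five⟩
    obtain ⟨x, hx⟩ := exists_prime_orderOf_dvd_card' (G := Y) 5 (h5.trans (Dvd.intro _ hmul.symm))
    obtain ⟨q, hq, hqi, -⟩ := A.qf rfl
    have h1 := card_dvd_of_quad A.S hx q hq hqi
    have h2 : 9 ∣ 120 := (h9.trans (Dvd.intro _ hmul.symm)).trans h1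
    exact absurd h2 (by norm_num)
  have h60 := card_of_not_nine A.na A.pS h9 (hS.trans (by norm_num))
  have h60' : Nat.card (Y ⧸ X) = 60 := by
    rcases h60 with h | h | h | h | h | h
    · exact h
    all_goals
      rw [h] at hS
      exact absurd hS (by norm_num)
  refine Or.inl ⟨h60', ?_⟩
  intro h
  rw [hmul, h60'] at hd
  have h1 : 60 * 5 ∣ 720 := (Nat.mul_dvd_mul_left 60 h).trans hd
  exact absurd h1 (by norm_num)

end Cfsg.Agent.H196.RIM
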